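/-
The statements for the plus and minus forms: the conditions for `-1 ∈ Ω` in terms of `m` and `q`.
-/
import Mathlib
import Cfsg.Agent.Lib.OutO.Forms
import Cfsg.Agent.S0790
import Cfsg.Agent.S0791

set_option autoImplicit false

namespace Cfsg.Agent.Lib.OutO.Final

open Matrix Cfsg QuadraticMap Module
open Cfsg.Agent.Lib.Orth.Bridge Cfsg.Agent.Lib.Orth.Closure Cfsg.Agent.Lib.Orth.Spin
open Cfsg.Agent.Lib.Orth.Forms Cfsg.Agent.Lib.Orth.Gram
open Cfsg.Agent.Lib.OutO.Induced Cfsg.Agent.Lib.OutO.Chars Cfsg.Agent.Lib.OutO.GroupLemmas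
open Cfsg.Agent.Lib.OutO.Main Cfsg.Agent.Lib.OutO.Struct Cfsg.Agent.Lib.OutO.Classes
open Cfsg.Agent.Lib.OutO.Forms

universe u

theorem pow_three_mod : ∀ n : ℕ, 3 ^ (2 * n) % 4 = 1 ∧ 3 ^ (2 * n + 1) % 4 = 3 := by
  intro n
  induction n with
  | zero => simp
  | succ n ih =>
    obtain ⟨h1, h2⟩ := ih
    constructor
    · rw [show 2 * (n + 1) = 2 * n + 2 by ring, pow_add]
      omega
    · rw [show 2 * (n + 1) + 1 = (2 * n + 1) + 2 by ring, pow_add]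
      omega

theorem pow_mod_of {q : ℕ} (hq : Odd q) (m : ℕ) :
    (q ^ m % 4 = 1 ↔ ¬ (Odd m ∧ q % 4 = 3)) ∧ (q ^ m % 4 = 3 ↔ (Odd m ∧ q % 4 = 3)) := by
  have hq4 : q % 4 = 1 ∨ q % 4 = 3 := by
    obtain ⟨t, rfl⟩ := hq
    omega
  rcases hq4 with h | h
  · have h1 : q ^ m % 4 = 1 := by
      rw [Nat.pow_mod, h, one_pow]
      rfl
    rw [h1]
    simp [h]
  · rcases Nat.even_or_odd' m with ⟨n, rfl | rfl⟩
    · have h1 : q ^ (2 * n) % 4 = 1 := by
        rw [Nat.pow_mod, h]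
        exact (pow_three_mod n).1
      rw [h1]
      simp
    · have h1 : q ^ (2 * n + 1) % 4 = 3 := by
        rw [Nat.pow_mod, h]
        exact (pow_three_mod n).2
      rw [h1]
      simp [h]

variable {F : Type u} [Field F] [Fintype F]

theorem two_ne_of_odd (hodd : Odd (Fintype.card F)) : (2 : F) ≠ 0 := by
  intro h
  have h1 : ringChar F = 2 := by
    have := CharP.cast_eq_zero_iff F (ringChar F) 2
    have hd : ringChar F ∣ 2 := this.1 (by exact_mod_cast h)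
    have hp := (Nat.dvd_prime Nat.prime_two).1 hd
    rcases hp with hp | hp
    · exfalso
      exact CharP.ringChar_ne_one hp
    · exact hp
  have h3 := FiniteField.even_card_iff_char_two.1 h1
  rw [Nat.odd_iff] at hodd
  omega

theorem neg_plus_iff (hodd : Odd (Fintype.card F)) {m : ℕ} (hm : 1 ≤ m) :
    NegIn (plusForm m F) ↔ ¬ (Odd m ∧ Fintype.card F % 4 = 3) := by
  have h1 := Cfsg.Agent.S0790.result (F := F) rfl hodd m hm
  exact h1.trans (pow_mod_of hodd m).1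

theorem neg_minus_iff (hodd : Odd (Fintype.card F)) (m : ℕ) {a b : F}
    (hab : ∀ z₁ z₂ : F, z₁ ^ 2 + a * z₁ * z₂ + b * z₂ ^ 2 = 0 → z₁ = 0 ∧ z₂ = 0) :
    NegIn (minusForm m F a b) ↔ (Even m ∧ Fintype.card F % 4 = 3) := by
  have h1 := Cfsg.Agent.S0791.result (F := F) rfl hodd (m + 1) (by omega) a b hab
  refine Iff.trans h1 ((pow_mod_of hodd (m + 1)).2.trans ?_)
  rw [Nat.odd_add_one, Nat.not_odd_iff_even]

theorem hv_plus (m : ℕ) (hm : 1 ≤ m) : ∃ v, (plusForm m F) v ≠ 0 :=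
  hv_of (plusForm_nondeg m) (by simp; omega)

theorem hv_minus (m : ℕ) {a b : F}
    (hab : ∀ z₁ z₂ : F, z₁ ^ 2 + a * z₁ * z₂ + b * z₂ ^ 2 = 0 → z₁ = 0 ∧ z₂ = 0) :
    ∃ v, (minusForm m F a b) v ≠ 0 :=
  hv_of (minusForm_nondeg m hab) (by simp)

theorem hv_plus' (m : ℕ) (hm : 1 ≤ m) : ∃ v, (plusForm m F) v ≠ 0 := hv_plus m hm

end Cfsg.Agent.Lib.OutO.Final
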